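import Cfsg.Agent.Lib.Helper11.HeM.Upper
import Cfsg.Agent.Lib.Helper11.CoxModel
import Cfsg.Agent.Lib.Helper11.Heo.M0

set_option autoImplicit false
set_option maxRecDepth 100000

namespace Cfsg.Agent.Lib.Helper11.Heo

open Cfsg.Spor Cfsg.Spor.He Cfsg.Agent.Lib.Helper11.HeM

set_option maxHeartbeats 0

noncomputable def ntl : List (List (ℕ × ℕ)) := [[], [(mk1_0, 8192), (mk1_1, 4096), (mk1_2, 2048), (mk1_3, 1024), (mk1_4, 512), (mk1_5, 256), (mk1_6, 128), (mk1_7, 64), (mk1_8, 32), (mk1_9, 16), (mk1_10, 8), (mk1_11, 4), (mk1_12, 2), (mk1_13, 1), (mk1_14, 2), (mk1_15, 4), (mk1_16, 8), (mk1_17, 16), (mk1_18, 32), (mk1_19, 64), (mk1_20, 128), (mk1_21, 256), (mk1_22, 512), (mk1_23, 1024), (mk1_24, 2048), (mk1_25, 4096), (mk1_26, 8192)], [(mk2_0, 8192), (mk2_1, 4096), (mk2_2, 2048), (mk2_3, 1024), (mk2_4, 512), (mk2_5, 256), (mk2_6, 128), (mk2_7, 64), (mk2_8, 32), (mk2_9, 16), (mk2_10, 8), (mk2_11, 4),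 (mk2_12, 2), (mk2_13, 1), (mk2_14, 2), (mk2_15, 4), (mk2_16, 8), (mk2_17, 16), (mk2_18, 32), (mk2_19, 64), (mk2_20, 128), (mk2_21, 256), (mk2_22, 512), (mk2_23, 1024), (mk2_24, 2048), (mk2_25, 4096), (mk2_26, 8192)], [(mk3_0, 8192), (mk3_1, 4096), (mk3_2, 2048), (mk3_3, 1024), (mk3_4, 512), (mk3_5, 256), (mk3_6, 128), (mk3_7, 64), (mk3_8, 32), (mk3_9, 16), (mk3_10, 8), (mk3_11, 4), (mk3_12, 2), (mk3_13, 1), (mk3_14, 2), (mk3_15, 4), (mk3_16, 8), (mk3_17, 16), (mk3_18, 32), (mk3_19, 64), (mk3_20, 128), (mk3_21, 256), (mk3_22, 512), (mk3_23, 1024), (mk3_24, 2048), (mk3_25, 4096), (mk3_26, 8192)], [(mk4_0, 8192), (mk4_1, 4096), (mk4_2, 2048), (mk4_3, 1024), (mk4_4, 512), (mk4_5, 256), (mk4_6, 128), (mk4_7, 64), (mk4_8, 32), (mk4_9, 16), (mk4_10, 8), (mk4_11, 4), (mk4_12, 2), (mk4_13, 1), (mk4_14, 2), (mk4_15, 4), (mk4_16, 8), (mk4_17, 16), (mk4_18, 32), (mk4_19, 64), (mk4_20, 128), (mk4_21, 256), (mk4_22,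 512), (mk4_23, 1024), (mk4_24, 2048), (mk4_25, 4096), (mk4_26, 8192)], [(mk5_0, 8192), (mk5_1, 4096), (mk5_2, 2048), (mk5_3, 1024), (mk5_4, 512), (mk5_5, 256), (mk5_6, 128), (mk5_7, 64), (mk5_8, 32), (mk5_9, 16), (mk5_10, 8), (mk5_11, 4), (mk5_12, 2), (mk5_13, 1), (mk5_14, 2), (mk5_15, 4), (mk5_16, 8), (mk5_17, 16), (mk5_18, 32), (mk5_19, 64), (mk5_20, 128), (mk5_21, 256), (mk5_22, 512), (mk5_23, 1024), (mk5_24, 2048), (mk5_25, 4096), (mk5_26, 8192)], [(mk6_0, 8192), (mk6_1, 4096), (mk6_2, 2048), (mk6_3, 1024), (mk6_4, 512), (mk6_5, 256), (mk6_6, 128), (mk6_7, 64), (mk6_8, 32), (mk6_9, 16), (mk6_10, 8), (mk6_11, 4), (mk6_12, 2), (mk6_13, 1), (mk6_14, 2), (mk6_15, 4), (mk6_16, 8), (mk6_17, 16), (mk6_18, 32), (mk6_19, 64), (mk6_20, 128), (mk6_21, 256), (mk6_22, 512), (mk6_23, 1024), (mk6_24, 2048), (mk6_25, 4096), (mk6_26, 8192)], [(mk7_0, 8192), (mk7_1, 4096), (mk7_2, 2048), (mk7_3, 1024), (mk7_4,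 512), (mk7_5, 256), (mk7_6, 128), (mk7_7, 64), (mk7_8, 32), (mk7_9, 16), (mk7_10, 8), (mk7_11, 4), (mk7_12, 2), (mk7_13, 1), (mk7_14, 2), (mk7_15, 4), (mk7_16, 8), (mk7_17, 16), (mk7_18, 32), (mk7_19, 64), (mk7_20, 128), (mk7_21, 256), (mk7_22, 512), (mk7_23, 1024), (mk7_24, 2048), (mk7_25, 4096), (mk7_26, 8192)]]
noncomputable def INVm : ℕ := 247132686368
def LTFm : List (FreeGroup Gen) := [1, a, b, c, d, e, f, g]
def hExps : List WExp := [(.l 1), (.l 3), (.l 4), (.l 5), (.l 6), (.l 7), (.mul (.mul (.l 2) (.l 1)) (.l 2)), (.mul (.mul (.mul (.mul (.mul (.mul (.mul (.mul (.mul (.mul (.mul (.mul (.mul (.mul (.mul (.mul (.mul (.mul (.mul (.mul (.mul (.l 2) (.l 3)) (.l 4)) (.l 5)) (.l 6)) (.l 4)) (.l 3)) (.l 2)) (.l 4)) (.l 3)) (.l 4)) (.l 3)) (.l 2)) (.l 5)) (.l 4)) (.l 3)) (.l 4)) (.l 5)) (.l 6)) (.l 4)) (.l 3)) (.l 2))]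
def gExps : List WExp := [(.l 1), (.l 2), (.l 3), (.l 4), (.l 5), (.l 6), (.l 7)]

theorem netsOK : ntl.all (fun net => net.all (stOK (2 ^ (2 ^ 14)))) = true := by decide +kernel
theorem idOK : (baseWords edges code nodes INVm 7 extraE []).all (wordId (ntOf ntl) 14) = true := by
  decide +kernel
theorem hfix0 : fixChk (ntOf ntl) (hExps.map (fun e => e.letters INVm)) 0 1 = true := by decide +kernel
theorem htr : growChk (ntOf ntl) (gExps.map (fun e => e.letters INVm)) 6 0 0 8330 = true := by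
  decide +kernel
theorem invnOK : fixChk (ntOf ntl) (gExps.map (fun e => e.letters INVm)) 0 8330 = true := by
  decide +kernel

theorem hwords : ∀ r ∈ baseWords edges code nodes INVm 7 extraE [],
    (r.map fun l => netPerm (ntOf ntl l)).prod = 1 :=
  model_words edges code nodes INVm 7 extraE ntl 14 netsOK idOK
theorem hinvN : ∀ l, netPerm (ntOf ntl (invL INVm l)) = (netPerm (ntOf ntl l))⁻¹ :=
  model_inv edges code nodes INVm 7 extraE ntl hwords (by decide +kernel) rfl (by norm_num)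
  (by decide +kernel) (by decide +kernel)
theorem hLTF : ∀ l, FreeGroup.lift (fun x => netPerm (ntOf ntl (code x))) (LTFm.getD l 1) =
      netPerm (ntOf ntl l) := by
  apply hLTF_of LTFm code 7 ntl rfl (by decide +kernel)
  intro l hl
  interval_cases l
  · exact (map_one _).trans netPerm_nil.symm
  · exact FreeGroup.lift_apply_of
  · exact FreeGroup.lift_apply_of
  · exact FreeGroup.lift_apply_of
  · exact FreeGroup.lift_apply_of
  · exact FreeGroup.lift_apply_of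
  · exact FreeGroup.lift_apply_of
  · exact FreeGroup.lift_apply_of
theorem hrels : ∀ r ∈ coxRelators edges ∪ {r | r ∈ extra},
    FreeGroup.lift (fun x => netPerm (ntOf ntl (code x))) r = 1 :=
  model_rels edges extra LTFm code nodes INVm 7 extraE ntl hwords hinvN (by decide)
  (by
    intro r hr
    have : extraE.map (fun e => e.eval (fun l => LTFm.getD l 1)) = extra := rfl
    rw [← this] at hr
    obtain ⟨e, he, h⟩ := List.mem_map.1 hr
    exact ⟨e, he, h⟩) hLTF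

/-- the permutation representation -/
noncomputable def psi : Cfsg.Spor.He →* Equiv.Perm ℕ :=
  PresentedGroup.toGroup (f := fun x => netPerm (ntOf ntl (code x))) hrels

theorem psi_eval (e : WExp) :
    psi (PresentedGroup.mk (coxRelators edges ∪ {r | r ∈ extra}) (e.eval (fun l => LTFm.getD l 1))) =
      wordPerm (ntOf ntl) (e.letters INVm) :=
  lift_eval LTFm code INVm ntl hinvN hLTF e

theorem hS1 : ∀ s ∈ ({a, c, d, e, f, g, ((b * a) * b), (((((((((((((((((((((b * c) * d) * e) * f) * d) * c) * b) * d) * c) * d) * c) * b) * e) * d) * c) * d) * e) * f) * d) * c) * b)} : Set (FreeGroup Gen)), ∃ ex ∈ hExps, ex.eval (fun n => LTFm.getD n 1) = s := by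
  intro s hs
  simp only [Set.mem_insert_iff, Set.mem_singleton_iff] at hs
  rcases hs with rfl | rfl | rfl | rfl | rfl | rfl | rfl | rfl
  · exact ⟨(.l 1), by simp [hExps], rfl⟩
  · exact ⟨(.l 3), by simp [hExps], rfl⟩
  · exact ⟨(.l 4), by simp [hExps], rfl⟩
  · exact ⟨(.l 5), by simp [hExps], rfl⟩
  · exact ⟨(.l 6), by simp [hExps], rfl⟩
  · exact ⟨(.l 7), by simp [hExps], rfl⟩
  · exact ⟨(.mul (.mul (.l 2) (.l 1)) (.l 2)), by simp [hExps], rfl⟩
  · exact ⟨(.mul (.mul (.mul (.mul (.mul (.mul (.mul (.mul (.mul (.mul (.mul (.mul (.mul (.mul (.mul (.mul (.mul (.mul (.mul (.mul (.mul (.l 2) (.l 3)) (.l 4)) (.l 5)) (.l 6)) (.l 4)) (.l 3)) (.l 2)) (.l 4)) (.l 3)) (.l 4)) (.l 3)) (.l 2)) (.l 5)) (.l 4)) (.l 3)) (.l 4)) (.l 5)) (.l 6)) (.l 4)) (.l 3)) (.l 2)), by simp [hExps], rfl⟩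

theorem hS2 : ∀ ex ∈ hExps, ex.eval (fun n => LTFm.getD n 1) ∈ ({a, c, d, e, f, g, ((b * a) * b), (((((((((((((((((((((b * c) * d) * e) * f) * d) * c) * b) * d) * c) * d) * c) * b) * e) * d) * c) * d) * e) * f) * d) * c) * b)} : Set (FreeGroup Gen)) := by
  intro ex he
  simp only [hExps, List.mem_cons, List.mem_nil_iff, or_false] at he
  rcases he with rfl | rfl | rfl | rfl | rfl | rfl | rfl | rfl <;> simp [WExp.eval, LTFm]

theorem hgenTop : Subgroup.closure {t : Cfsg.Spor.He | ∃ e ∈ gExps, t =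
    PresentedGroup.mk (coxRelators edges ∪ {r | r ∈ extra}) (e.eval (fun n => LTFm.getD n 1))} = ⊤ := by
  rw [eq_top_iff, ← PresentedGroup.closure_range_of]
  apply Subgroup.closure_mono
  rintro _ ⟨x, rfl⟩
  cases x
  · exact ⟨.l 1, by simp [gExps], rfl⟩
  · exact ⟨.l 2, by simp [gExps], rfl⟩
  · exact ⟨.l 3, by simp [gExps], rfl⟩
  · exact ⟨.l 4, by simp [gExps], rfl⟩
  · exact ⟨.l 5, by simp [gExps], rfl⟩
  · exact ⟨.l 6, by simp [gExps], rfl⟩
  · exact ⟨.l 7, by simp [gExps], rfl⟩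

theorem hgen (g : Cfsg.Spor.He) : g ∈ Subgroup.closure {t : Cfsg.Spor.He | ∃ e ∈ gExps, t =
    PresentedGroup.mk (coxRelators edges ∪ {r | r ∈ extra}) (e.eval (fun n => LTFm.getD n 1))} := by
  rw [hgenTop]; exact Subgroup.mem_top g


end Cfsg.Agent.Lib.Helper11.Heo
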