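import Cfsg.Agent.Lib.Helper11.Heo.Model
import Cfsg.Agent.Lib.Helper11.SimpleModel2

set_option autoImplicit false
set_option maxRecDepth 100000

namespace Cfsg.Agent.Lib.Helper11.Heo

open Cfsg.Spor Cfsg.Spor.He Cfsg.Agent.Lib.Helper11.HeM

set_option maxHeartbeats 0

def primL : List (ℕ × ℕ × WExp × ℕ) := [(720, 3, (.l 2), 4), (105, 3, (.mul (.l 2) (.mul (.l 3) (.mul (.l 4) (.mul (.l 6) (.mul (.l 5) (.mul (.l 4) (.mul (.l 3) (.l 2)))))))), 5), (840, 4, (.mul (.l 2) (.mul (.l 3) (.mul (.l 4) (.mul (.l 2) (.mul (.l 3) (.mul (.l 4) (.mul (.l 6) (.mul (.l 5) (.mul (.l 4) (.mul (.l 3) (.l 2))))))))))), 3), (1344, 3, (.mul (.l 2) (.mul (.l 3) (.mul (.l 4) (.mul (.l 3) (.l 2))))), 3), (4480, 3, (.mul (.l 2) (.mul (.l 3) (.mul (.l 4) (.mul (.l 6) (.mul (.l 5) (.mul (.l 3) (.mul (.l 4) (.mul (.l 3) (.l 2))))))))), 3), (840, 3, (.mul (.l 2) (.mul (.l 3) (.mul (.l 4) (.mul (.l 6) (.mul (.l 7)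 (.mul (.l 4) (.mul (.l 3) (.l 2)))))))), 4)]
theorem primOK : primChk (ntOf ntl) INVm (hExps.map (fun e => e.letters INVm)) 8330 1 primL = true := by
  decide +kernel
def xE : WExp := .mul (.mul (.mul (.mul (.mul (.mul (.mul (.mul (.mul (.mul (.mul (.mul (.mul (.mul (.mul (.mul (.mul (.mul (.mul (.mul (.mul (.l 2) (.l 3)) (.l 4)) (.l 5)) (.l 6)) (.l 4)) (.l 3)) (.l 2)) (.l 4)) (.l 3)) (.l 4)) (.l 3)) (.l 2)) (.l 5)) (.l 4)) (.l 3)) (.l 4)) (.l 5)) (.l 6)) (.l 4)) (.l 3)) (.l 2)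
def z1E : WExp := .l 1
def z2E : WExp := .mul (.mul xE (.l 1)) (.inv xE)
theorem normOK : normChkL (ntOf ntl) 14 (hExps.map (fun e => e.letters INVm))
    ([z1E, z2E].map (fun e => e.letters INVm)) ([z1E, z2E, .mul z1E z2E].map (fun e => e.letters INVm)) = true := by
  decide +kernel
theorem commOK : normChk (ntOf ntl) 14 ([z1E].map (fun e => e.letters INVm)) (z2E.letters INVm)
    (z2E.letters INVm) = true := by decide +kernel


end Cfsg.Agent.Lib.Helper11.Heo
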